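import Mathlib
import Cfsg.Agent.Cl.Transport

/-! `PSL₂(17)` has no nonzero module in characteristic two on which the elements of orders 3 and
17 act without fixed points. -/

set_option autoImplicit false

namespace Cfsg.Agent.K3.L17

section ring

variable {K R : Type*} [Group K] [Ring R] (r : K →* R)

theorem ring_false (h2 : (2 : R) = 0) {x g u y : K}
    (n3 : ∀ a : K, a ^ 3 = 1 → a ≠ 1 → 1 + r a + r a * r a = 0)
    (n17 : ∀ k : ℕ, ¬ 17 ∣ k → ∑ i ∈ Finset.range 17, r ((x ^ k) ^ i) = 0)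
    (y3 : y ^ 3 = 1) (y1 : y ≠ 1) (z3 : (y * g ^ 4) ^ 3 = 1) (z1 : y * g ^ 4 ≠ 1)
    (tt : r (g ^ 4 * g ^ 4) = 1) (ww : r (g ^ 4 * u * (g ^ 4 * u)) = 1)
    (e1 : y * g ^ 4 * (y * g ^ 4) = y * y * (u * g ^ 4))
    (tu : r (u * g ^ 4) = r (g ^ 4 * u))
    (ug : r (u * (g⁻¹ * u * g)) = r (g ^ 2))
    (c1 : ∀ i : ℕ, (x ^ i)⁻¹ * g ^ 2 * x ^ i = g ^ 2 * (x ^ 14) ^ i)
    (c2 : ∀ i : ℕ, (x ^ i)⁻¹ * g ^ 4 * x ^ i = g ^ 4 * (x ^ 2) ^ i)
    (c3 : ∀ i : ℕ, (x ^ i)⁻¹ * g ^ 6 * x ^ i = g ^ 6 * (x ^ 5) ^ i) : (1 : R) = 0 := by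
  have a2 : ∀ a : R, a + a = 0 := fun a => by rw [← two_mul, h2, zero_mul]
  set t := r (g ^ 4) with ht
  set w := r (g ^ 4 * u) with hw
  have k1 := n3 y y3 y1
  have k2 := n3 _ z3 z1
  rw [← map_mul, e1, map_mul, map_mul, tu, map_mul, ← ht] at k2
  have yy : r y⁻¹ * r y = 1 := by rw [← map_mul, inv_mul_cancel, map_one]
  -- `y (w + 1) = t + 1`
  have k3 : r y * (w + 1) = t + 1 := by
    have : r y * (r y * (w + 1) + (t + 1)) = 0 := by
      have e : r y * (r y * (w + 1) + (t + 1)) =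
          (1 + r y * t + r y * r y * w) + (1 + r y + r y * r y) - (1 + 1) := by noncomm_ring
      rw [e, k1, k2, a2, a2, sub_zero]
    have h0 : r y * (w + 1) + (t + 1) = 0 := by
      have := congrArg (r y⁻¹ * ·) this
      simpa only [← mul_assoc (r y⁻¹), yy, one_mul, mul_zero] using this
    calc r y * (w + 1) = (r y * (w + 1) + (t + 1)) + (t + 1) - ((t + 1) + (t + 1)) := by noncomm_ring
      _ = t + 1 := by rw [h0, a2, zero_add, sub_zero]
  have w2 : w * w = 1 := by rw [hw, ← map_mul, ww]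
  have t2 : t * t = 1 := by rw [ht, ← map_mul, tt]
  have k4 : (t + 1) * w = t + 1 := by
    rw [← k3, mul_assoc, add_mul, w2, one_mul, add_comm 1 w]
  have k5 : (t + 1) * t = t + 1 := by rw [add_mul, t2, one_mul, add_comm]
  have k6 : (t + 1) * r u = t + 1 := by
    have : w = t * r u := by rw [hw, map_mul]
    rw [this, ← mul_assoc, k5] at k4
    exact k4
  have cg : (t + 1) * r g⁻¹ = r g⁻¹ * (t + 1) := by
    rw [add_mul, mul_add, ht, ← map_mul, ← map_mul, one_mul, mul_one]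
    congr 2
    group
  have k7 : (t + 1) * r (g⁻¹ * u * g) = t + 1 := by
    rw [map_mul, map_mul, ← mul_assoc, ← mul_assoc, cg, mul_assoc (r g⁻¹), k6, ← cg, mul_assoc,
      ← map_mul, inv_mul_cancel, map_one, mul_one]
  have k8 : (t + 1) * r (g ^ 2) = t + 1 := by rw [← ug, map_mul, ← mul_assoc, k6, k7]
  have k9 : 1 + r (g ^ 2) + r (g ^ 4) + r (g ^ 6) = 0 := by
    have e : r (g ^ 6) = t * r (g ^ 2) := by rw [ht, ← map_mul, ← pow_add]
    rw [e, ← ht]
    calc 1 + r (g ^ 2) + t + t * r (g ^ 2) = (t + 1) * r (g ^ 2) + (t + 1) := by noncomm_ring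
      _ = 0 := by rw [k8, a2]
  have k10 : ∑ i ∈ Finset.range 17, r (x ^ i)⁻¹ * (1 + r (g ^ 2) + r (g ^ 4) + r (g ^ 6)) * r (x ^ i)
      = 0 := Finset.sum_eq_zero fun i _ => by rw [k9, mul_zero, zero_mul]
  have k11 : ∀ i : ℕ, r (x ^ i)⁻¹ * (1 + r (g ^ 2) + r (g ^ 4) + r (g ^ 6)) * r (x ^ i) =
      1 + r (g ^ 2) * r ((x ^ 14) ^ i) + r (g ^ 4) * r ((x ^ 2) ^ i) + r (g ^ 6) * r ((x ^ 5) ^ i) :=
    fun i => by
      simp only [mul_add, add_mul, mul_one, ← map_mul, c1, c2, c3, inv_mul_cancel, map_one]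
  simp only [k11, Finset.sum_add_distrib, ← Finset.mul_sum, n17 14 (by norm_num), n17 2 (by norm_num),
    n17 5 (by norm_num), mul_zero, add_zero, Finset.sum_const, Finset.card_range] at k10
  have : (17 : ℕ) • (1 : R) = 1 + 8 * 2 := by norm_num
  rwa [this, h2, mul_zero, add_zero] at k10

end ring

abbrev S := Matrix.SpecialLinearGroup (Fin 2) (ZMod 17)

def x : S := ⟨!![1, 1; 0, 1], by decide⟩
def g : S := ⟨!![3, 0; 0, 6], by decide⟩
def u : S := ⟨!![0, 1; 16, 0], by decide⟩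
def y : S := ⟨!![6, 7; 6, 10], by decide⟩
def m : S := ⟨!![16, 0; 0, 16], by decide⟩

theorem m_mem : m ∈ Subgroup.center S :=
  Matrix.SpecialLinearGroup.mem_center_iff.2 ⟨16, by decide, by decide⟩

theorem cpw {K : Type*} [Group K] {a b : K} {k l : ℕ} (h : b⁻¹ * a * b = a ^ k)
    (h' : a ^ (k + l) = a) (i : ℕ) : (a ^ i)⁻¹ * b * a ^ i = b * (a ^ l) ^ i := by
  have e : b⁻¹ * a ^ i * b = (a ^ k) ^ i := by
    rw [← h]; simpa using (_root_.conj_pow (a := b⁻¹) (b := a) (i := i)).symm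
  have e2 : (a ^ k) ^ i * (a ^ l) ^ i = a ^ i := by
    rw [← (Commute.pow_pow_self a k l).mul_pow, ← pow_add, h']
  calc (a ^ i)⁻¹ * b * a ^ i = b * (b⁻¹ * a ^ i * b)⁻¹ * a ^ i := by group
    _ = b * (a ^ l) ^ i := by rw [e, ← e2]; group

end Cfsg.Agent.K3.L17

namespace Cfsg.Agent.K3

open L17 in
theorem l17 {F : Type*} [Field F] [Fintype F] (hF : Fintype.card F = 17) {V : Type*} [CommGroup V]
    [Nontrivial V] (h2 : ∀ v : V, v ^ 2 = 1)
    (ρ : Matrix.ProjectiveSpecialLinearGroup (Fin 2) F →* MulAut V)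
    (hf : ∀ a, orderOf a = 3 ∨ orderOf a = 17 → ∀ v : V, ρ a v = v → v = 1) : False := by
  have : Fact (Nat.Prime 17) := ⟨by norm_num⟩
  have : Fact (Nat.Prime 3) := ⟨by norm_num⟩
  let e : ZMod 17 ≃+* F := ZMod.ringEquivOfPrime F (by norm_num) hF
  let π : S →* Matrix.ProjectiveSpecialLinearGroup (Fin 2) F :=
    (Cl.pslMapEquiv (Fin 2) e).toMonoidHom.comp (QuotientGroup.mk' _)
  have ker : ∀ a : S, π a = 1 ↔ a ∈ Subgroup.center S := fun a => by
    simp only [π, MonoidHom.comp_apply, MulEquiv.coe_toMonoidHom, map_eq_one_iff _ (MulEquiv.injective _),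
      QuotientGroup.mk'_apply, QuotientGroup.eq_one_iff]
  have ord : ∀ (q : ℕ) [Fact q.Prime], Odd q → ∀ a : S, a ^ q = 1 → a ≠ 1 → orderOf (π a) = q :=
    fun q _ ho a h h1 => orderOf_eq_prime (by rw [← map_pow, h, map_one]) fun k => h1 (by
      obtain ⟨c, hc, hc'⟩ := Matrix.SpecialLinearGroup.mem_center_iff.1 ((ker a).1 k)
      have a2 : a ^ 2 = 1 := Subtype.ext (by
        rw [Matrix.SpecialLinearGroup.coe_pow, ← hc', ← map_pow]
        rw [Fintype.card_fin] at hc
        rw [hc, map_one]; rfl)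
      obtain ⟨j, rfl⟩ := ho
      rwa [pow_succ, pow_mul, a2, one_pow, one_mul] at h)
  let r : S →* AddMonoid.End (Additive V) :=
    { toFun := fun a => MonoidHom.toAdditive (ρ (π a)).toMonoidHom
      map_one' := by ext v; simp; rfl
      map_mul' := fun a b => by ext v; simp; rfl }
  have rr : ∀ (a : S) (v : Additive V), r a v = Additive.ofMul (ρ (π a) v.toMul) := fun _ _ => rfl
  have nrm : ∀ (q : ℕ) [Fact q.Prime], q = 3 ∨ q = 17 → ∀ a : S, a ^ q = 1 → a ≠ 1 →
      ∑ i ∈ Finset.range q, r (a ^ i) = 0 := fun q _ hq a h h1 => by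
    have k : r a * ∑ i ∈ Finset.range q, r (a ^ i) = ∑ i ∈ Finset.range q, r (a ^ i) := by
      have := Finset.sum_range_succ' (fun i => r (a ^ i)) q
      rw [Finset.sum_range_succ, h, pow_zero] at this
      conv_rhs => rw [add_right_cancel this]
      rw [Finset.mul_sum]
      exact Finset.sum_congr rfl fun i _ => by rw [← map_mul, pow_succ']
    ext v
    have k2 := DFunLike.congr_fun k v
    have o := ord q (by rcases hq with rfl | rfl <;> decide) a h h1
    exact congrArg Additive.ofMul (hf (π a) (by omega) _ (congrArg Additive.toMul k2))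
  have mm : r m = 1 := by
    have : π m = 1 := (ker m).2 m_mem
    ext v; rw [rr, this]; simp
  have key := ring_false r (x := x) (g := g) (u := u) (y := y) (by
      rw [← one_add_one_eq_two]
      ext v
      exact congrArg Additive.ofMul ((pow_two v.toMul).symm.trans (h2 v.toMul)))
    (fun a h h1 => by
      have := nrm 3 (.inl rfl) a h h1
      simpa [Finset.sum_range_succ, pow_two] using this)
    (fun k hk => nrm 17 (.inr rfl) _ (by
        rw [← pow_mul, mul_comm, pow_mul, show x ^ 17 = 1 by decide, one_pow])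
      fun e => hk (by
        have : orderOf x = 17 := orderOf_eq_prime (by decide) (by decide)
        exact this ▸ orderOf_dvd_of_pow_eq_one e))
    (by decide) (by decide) (by decide) (by decide)
    (by rw [show g ^ 4 * g ^ 4 = m by decide, mm])
    (by rw [show g ^ 4 * u * (g ^ 4 * u) = m by decide, mm]) (by decide)
    (by rw [show u * g ^ 4 = m * (g ^ 4 * u) by decide, map_mul, mm, one_mul])
    (by rw [show u * (g⁻¹ * u * g) = m * g ^ 2 by decide, map_mul, mm, one_mul])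
    (cpw (k := 4) (by decide) (by decide)) (cpw (k := 16) (by decide) (by decide))
    (cpw (k := 13) (by decide) (by decide))
  obtain ⟨v, hv⟩ := exists_ne (1 : V)
  exact hv (congrArg Additive.toMul (DFunLike.congr_fun key (Additive.ofMul v)))

end Cfsg.Agent.K3
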