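import Mathlib

/-! An endomorphism of an elementary abelian group of order eight which is a commutator
`φ B φ⁻¹ - B` for every automorphism `φ` of order seven is trivial. -/

set_option autoImplicit false

namespace Cfsg.Agent.K3.Lin

abbrev Mt := Matrix (Fin 3) (Fin 3) (ZMod 2)

def mats : Fin 9 → Mt := ![!![0, 0, 1; 1, 0, 0; 0, 1, 1], !![0, 0, 1; 1, 0, 0; 1, 1, 0], !![0, 0, 1; 1, 0, 1; 0, 1, 0],
  !![0, 0, 1; 1, 1, 0; 0, 1, 0], !![0, 1, 0; 0, 0, 1; 1, 0, 1], !![0, 1, 0; 0, 0, 1; 1, 1, 0],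
  !![0, 1, 0; 1, 0, 1; 1, 0, 0], !![1, 0, 1; 1, 0, 0; 0, 1, 0], !![0, 0, 1; 0, 1, 1; 1, 1, 0]]

theorem mats_pow : ∀ i, mats i ^ 7 = 1 ∧ mats i ≠ 1 := by decide

set_option synthInstance.maxSize 2000 in
set_option synthInstance.maxHeartbeats 200000 in
theorem aux : ∀ a b c d e f g h k : ZMod 2, b + f + (g + k) = 0 → b + c + f + g = 0 →
    b + f + (g + h) = 0 → b + (e + f) + g = 0 → c + d + (h + k) = 0 → c + (d + f) + h = 0 →
    b + c + d + h = 0 → a + b + f + g = 0 → c + (e + f) + (g + h) = 0 →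
    a = 0 ∧ b = 0 ∧ c = 0 ∧ d = 0 ∧ e = 0 ∧ f = 0 ∧ g = 0 ∧ h = 0 ∧ k = 0 := by
  decide +kernel

theorem span (E : Mt) (h : ∀ i, (E * mats i).trace = 0) : E = 0 := by
  have h0 := h 0; have h1 := h 1; have h2 := h 2; have h3 := h 3; have h4 := h 4
  have h5 := h 5; have h6 := h 6; have h7 := h 7; have h8 := h 8
  simp [mats, Matrix.trace, Matrix.mul_apply, Fin.sum_univ_three] at h0 h1 h2 h3 h4 h5 h6 h7 h8
  obtain ⟨a, b, c, d, e, f, g, h, k⟩ := aux _ _ _ _ _ _ _ _ _ h0 h1 h2 h3 h4 h5 h6 h7 h8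
  ext i j
  fin_cases i <;> fin_cases j <;> assumption

end Cfsg.Agent.K3.Lin

namespace Cfsg.Agent.K3

theorem lin {V : Type*} [CommGroup V] [Finite V] (h2 : ∀ v : V, v ^ 2 = 1) (h8 : Nat.card V = 8)
    (E : V →* V) (h : ∀ φ : MulAut V, φ ^ 7 = 1 → φ ≠ 1 →
      ∃ B : V →* V, ∀ v, E (φ v) = φ (B v) * B (φ v)) (v : V) : E v = 1 := by
  let _ : Module (ZMod 2) (Additive V) := AddCommGroup.zmodModule fun a => h2 a.toMul
  have : Fact (Nat.Prime 2) := ⟨Nat.prime_two⟩
  have fr : Module.finrank (ZMod 2) (Additive V) = 3 := by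
    have := Module.natCard_eq_pow_finrank (K := ZMod 2) (V := Additive V)
    rw [Nat.card_zmod, show Nat.card (Additive V) = 8 from h8] at this
    exact (Nat.pow_right_injective (le_refl 2) (this.symm.trans (by norm_num)))
  let b := Module.finBasisOfFinrankEq (ZMod 2) (Additive V) fr
  let l : (V →* V) → Module.End (ZMod 2) (Additive V) := fun f =>
    (MonoidHom.toAdditive f).toZModLinearMap 2
  let T := LinearMap.toMatrixAlgEquiv b
  have key : T (l E) = 0 := Lin.span _ fun i => by
    obtain ⟨p7, p1⟩ := Lin.mats_pow i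
    obtain ⟨A, hA⟩ := T.surjective (Lin.mats i)
    have A7 : A ^ 7 = 1 := T.injective (by rw [map_pow, hA, p7, map_one])
    have A61 : A ^ 6 * A = 1 := by rw [← pow_succ, A7]
    have A16 : A * A ^ 6 = 1 := by rw [← pow_succ', A7]
    let φ : MulAut V :=
      { toFun := fun a => (A (Additive.ofMul a)).toMul
        invFun := fun a => ((A ^ 6) (Additive.ofMul a)).toMul
        left_inv := fun a => congrArg Additive.toMul (DFunLike.congr_fun A61 (Additive.ofMul a))
        right_inv := fun a => by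
          have := DFunLike.congr_fun A16 (Additive.ofMul a)
          rw [Module.End.mul_apply] at this
          exact congrArg Additive.toMul this
        map_mul' := fun a b => congrArg Additive.toMul (A.map_add (Additive.ofMul a) (Additive.ofMul b)) }
    have pw : ∀ (n : ℕ) (a : V), (φ ^ n) a = ((A ^ n) (Additive.ofMul a)).toMul := fun n => by
      induction n with
      | zero => intro a; rfl
      | succ n ih => intro a; rw [pow_succ, pow_succ, MulAut.mul_apply, ih]; rfl
    obtain ⟨B, hB⟩ := h φ (MulEquiv.ext fun a => by rw [pw, A7]; rfl) fun e => p1 (by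
      have : A = 1 := LinearMap.ext fun a => congrArg Additive.ofMul (DFunLike.congr_fun e a.toMul)
      rw [← hA, this, map_one])
    have e : l E * A = A * l B + l B * A := LinearMap.ext fun a => congrArg Additive.ofMul (hB a.toMul)
    have e2 := congrArg T e
    rw [map_mul, map_add, map_mul, map_mul, hA] at e2
    rw [e2, Matrix.trace_add, Matrix.trace_mul_comm, CharTwo.add_self_eq_zero]
  have : l E = 0 := (map_eq_zero_iff T T.injective).1 key
  exact congrArg Additive.toMul (DFunLike.congr_fun this (Additive.ofMul v))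

end Cfsg.Agent.K3
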