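import Mathlib
import Cfsg.Agent.K3.Defs
import Cfsg.Agent.GT.ThompsonBender
import Cfsg.Agent.GT.FourGroup
import Cfsg.Agent.GT.PGroupElemAb
import Cfsg.Agent.GT.Cores
import Cfsg.Agent.GT.Components

/-! Simple groups of order `p * 3 ^ a * 2 ^ b`: local conditions at the prime three. -/

set_option autoImplicit false
open Cfsg Subgroup Cfsg.Agent.GT

namespace Cfsg.Agent.K3

/-- No involution centralises an elementary abelian group of order nine. -/
def NI (G : Type*) [Group G] : Prop :=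
  ∀ (v : G) (E : Subgroup G), orderOf v = 2 → E ≤ Subgroup.centralizer ({v} : Set G) →
    IsElementaryAbelian 3 E → Nat.card E ≠ 9

variable {G : Type*} [Group G] [Finite G]

namespace Loc

omit [Finite G] in
theorem cent_zpowers {x v : G} (h : x * v = v * x) : x ∈ centralizer (zpowers v : Set G) :=
  mem_centralizer_iff.2 fun _ ⟨k, hk⟩ => hk ▸ (Commute.zpow_left (show Commute v x from h.symm) k).eq

theorem cent_of_omega {A R : Subgroup G} {v : G} (hv : orderOf v = 2) (hR : IsPGroup 3 R) (hA : IsPGroup 3 A)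
    (hAR : A ≤ normalizer (R : Set G)) (hvR : v ∈ normalizer (R : Set G)) (hAv : A ≤ centralizer {v})
    (h : ∀ x ∈ R, x ∈ centralizer (A : Set G) → x ^ 3 = 1 → x * v = v * x) : v ∈ centralizer (R : Set G) :=
  have : Fact (Nat.Prime 3) := ⟨Nat.prime_three⟩
  TB.le_centralizer_of_omega_centralizer (p := 3) (by norm_num) (Q := zpowers v) hR hA
    (by rw [Nat.card_zpowers, hv]; norm_num) hAR (zpowers_le.2 hvR)
    (fun a ha => centralizer_le_normalizer _ (cent_zpowers (mem_centralizer_singleton_iff.1 (hAv ha))))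
    (fun x hx h3 => cent_zpowers (h x hx.1 hx.2 h3)) (mem_zpowers v)

theorem not_cent (h : Char3 G) {y v : G} (hy : orderOf y = 3) (hv : orderOf v = 2)
    (hc : v ∈ centralizer ({y} : Set G))
    (hW : v ∈ centralizer (pCoreOf 3 (centralizer ({y} : Set G)) : Set G)) : False := by
  obtain ⟨k, hk⟩ := isPGroup_pCoreOf 3 _ ⟨v, h y hy v hc hW⟩
  have h1 : orderOf v ∣ 3 ^ k := orderOf_dvd_of_pow_eq_one (congrArg Subtype.val hk)
  rw [hv] at h1
  exact absurd (Nat.prime_two.dvd_of_dvd_pow h1) (by norm_num)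

omit [Finite G] in
theorem norm_inf_cent {K : Subgroup G} {g t : G} (hg : g ∈ normalizer (K : Set G)) (hc : g * t = t * g) :
    g ∈ normalizer ((K ⊓ centralizer {t} : Subgroup G) : Set G) := by
  refine mem_normalizer_iff.2 fun x => and_congr (mem_normalizer_iff.1 hg x) ?_
  change x ∈ centralizer {t} ↔ g * x * g⁻¹ ∈ centralizer {t}
  have h1 : g ∈ centralizer ({t} : Set G) := mem_centralizer_singleton_iff.2 hc
  rw [mul_mem_cancel_right (inv_mem h1), mul_mem_cancel_left h1]

end Loc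

open Loc

omit [Finite G] in
theorem Thin.ni (h : Thin G) : NI G := fun v E hv hE =>
  h (zpowers v) E (IsPGroup.of_card (n := 1) (by rw [Nat.card_zpowers, hv, pow_one]))
    (fun e => by rw [zpowers_eq_bot.1 e, orderOf_one] at hv; exact absurd hv (by norm_num))
    fun a ha => centralizer_le_normalizer _ (cent_zpowers (mem_centralizer_singleton_iff.1 (hE ha)))

theorem Char3.ni (h : Char3 G) (hr : PRankLE 3 2 G) : NI G := by
  intro v E hv hE hE3 h9
  have : Fact (Nat.Prime 3) := ⟨Nat.prime_three⟩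
  obtain ⟨⟨u, hu⟩, hu1⟩ := ne_bot_iff_exists_ne_one.1 (show E ≠ ⊥ from fun e => by simp [e] at h9)
  have hu3 := hE3.orderOf_eq hu fun e => hu1 (Subtype.ext e)
  have hvu : v ∈ centralizer ({u} : Set G) :=
    mem_centralizer_singleton_iff.2 (mem_centralizer_singleton_iff.1 (hE hu)).symm
  refine not_cent h hu3 hv hvu (cent_of_omega hv (isPGroup_pCoreOf 3 _) hE3.isPGroup
    (fun a ha => le_normalizer_pCoreOf _ (mem_centralizer_singleton_iff.2 (hE3.comm ha hu)))
    (le_normalizer_pCoreOf _ hvu) hE fun x _ hx h3 => mem_centralizer_singleton_iff.1 (hE ?_))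
  have h1 := hE3.sup_zpowers h3 hx
  rw [eq_of_le_of_card_ge (le_sup_left : E ≤ E ⊔ zpowers x) (by rw [h9]; exact hr _ h1.1 h1.2)]
  exact mem_sup_right (mem_zpowers x)

theorem Char3.four (h : Char3 G) (hn : NI G) : Four G := by
  intro y u v hy hu hv hyu hyv huv
  by_contra hne
  have hW := isPGroup_pCoreOf 3 (centralizer ({y} : Set G))
  have hN : ∀ t : G, Commute y t → t ∈ normalizer (pCoreOf 3 (centralizer ({y} : Set G)) : Set G) :=
    fun t ht => le_normalizer_pCoreOf _ (mem_centralizer_singleton_iff.2 ht.eq.symm)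
  have hy3 : y ^ 3 = 1 := hy ▸ pow_orderOf_eq_one y
  have key : ∀ t : G, orderOf t = 2 → Commute y t → Commute u t →
      pCoreOf 3 (centralizer ({y} : Set G)) ⊓ centralizer {t} ≤ centralizer {u} := fun t ht hyt hut w hw => by
    refine mem_centralizer_singleton_iff.2 (mem_centralizer_iff.1 (cent_of_omega (A := ⊥) hu (hW.to_le inf_le_left)
      IsPGroup.of_bot bot_le (norm_inf_cent (hN u hyu) hut.eq) bot_le fun x hx _ h3 => ?_) w hw)
    have hxy := cent_zpowers (mem_centralizer_singleton_iff.1 (pCoreOf_le _ hx.1))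
    by_cases h1 : x ∈ zpowers y
    · obtain ⟨k, rfl⟩ := h1
      exact (hyu.zpow_left k).eq
    · refine absurd ?_ (hn t (zpowers y ⊔ zpowers x) ht (sup_le (zpowers_le.2 (mem_centralizer_singleton_iff.2 hyt.eq))
        (zpowers_le.2 hx.2)) ((IsElementaryAbelian.zpowers hy3).sup_zpowers h3 hxy))
      rw [PG.card_sup_zpowers Nat.prime_three (centralizer_le_normalizer _ hxy) h1 (h3 ▸ one_mem _),
        Nat.card_zpowers, hy]
  have hu2 : u ^ 2 = 1 := hu ▸ pow_orderOf_eq_one u
  have hv2 : v ^ 2 = 1 := hv ▸ pow_orderOf_eq_one v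
  have huv2 : orderOf (u * v) = 2 := orderOf_eq_prime (by rw [huv.mul_pow, hu2, hv2, one_mul]) fun e =>
    hne (mul_right_cancel (e.trans (hv2.symm.trans (pow_two v))))
  have h2 : ¬ 2 ∣ Nat.card (pCoreOf 3 (centralizer ({y} : Set G))) := fun h2 => by
    have : Fact (Nat.Prime 3) := ⟨Nat.prime_three⟩
    obtain ⟨k, hk⟩ := hW.exists_card_eq
    exact absurd (Nat.prime_two.dvd_of_dvd_pow (hk ▸ h2)) (by norm_num)
  have := le_of_four_group hu hv hne huv (hN u hyu) (hN v hyv) h2 inf_le_right (key v hv hyv huv)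
    (key _ huv2 (hyu.mul_right hyv) ((Commute.refl u).mul_right huv))
  exact not_cent h hy hu (mem_centralizer_singleton_iff.2 hyu.eq.symm)
    (mem_centralizer_iff.2 fun w hw => mem_centralizer_singleton_iff.1 (this hw))

theorem NI.thin (hn : NI G) (h4 : Four G) : Thin G := by
  intro T E hT hT1 hE hE3 h9
  have : Fact (Nat.Prime 3) := ⟨Nat.prime_three⟩
  have hZ : IsMulCommutative (T ⊓ centralizer (T : Set G) : Subgroup G) :=
    ⟨⟨fun a b => Subtype.ext (mem_centralizer_iff.1 b.2.2 _ a.2.1)⟩⟩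
  have hZ1 : T ⊓ centralizer (T : Set G) ≠ ⊥ := by
    have := (T.nontrivial_iff_ne_bot).2 hT1
    have := hT.center_nontrivial
    obtain ⟨z, hz⟩ := exists_ne (1 : center T)
    exact ne_bot_iff_exists_ne_one.2 ⟨⟨z.1.1, z.1.2, mem_centralizer_iff.2 fun a ha =>
      congrArg Subtype.val (mem_center_iff.1 z.2 ⟨a, ha⟩)⟩, fun e =>
        hz (Subtype.ext (Subtype.ext (congrArg Subtype.val e :)))⟩
  have hV := PG.isElementaryAbelian_omegaOne (p := 2) hZ
  have hV1 := PG.omegaOne_ne_bot (hT.to_le inf_le_left) hZ1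
  have hEV : E ≤ normalizer (omegaOne 2 (T ⊓ centralizer (T : Set G)) : Set G) := fun g hg =>
    PG.normalizer_le_normalizer_omegaOne _ (mem_normalizer_iff.2 fun x => and_congr (mem_normalizer_iff.1 (hE hg) x)
      (mem_normalizer_iff.1 (normalizer_le_normalizer_centralizer T (hE hg)) x))
  generalize omegaOne 2 (T ⊓ centralizer (T : Set G)) = V at hV hV1 hEV
  refine hV1 (le_bot_iff.1 (CopAct.le_of_centralizer_elt_le hE3.1 (hE3.not_isCyclic (n := 2) h9 le_rfl) hEV ?_
    fun e he he1 t ht => ?_))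
  · obtain ⟨k, hk⟩ := hV.card_eq_pow
    rw [h9, hk]
    exact Nat.Coprime.pow_right k (by norm_num)
  · by_contra ht1
    have ht2 := hV.orderOf_eq ht.1 ht1
    have het : Commute e t := (mem_centralizer_singleton_iff.1 ht.2).symm
    refine hn t E ht2 (fun g hg => mem_centralizer_singleton_iff.2 (mul_inv_eq_iff_eq_mul.1 (Eq.symm ?_))) hE3 h9
    have hge : Commute e g := hE3.comm he hg
    exact h4 e t _ (hE3.orderOf_eq he he1) ht2 (((MulAut.conj g).orderOf_eq t).trans ht2) het
      ((hge.mul_right het).mul_right hge.inv_right) (hV.comm ht.1 ((mem_normalizer_iff.1 (hEV hg) t).1 ht.1))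

/-- If `81` does not divide the order and the Sylow 3-subgroups are not abelian, the 3-rank is at
most two. -/
theorem rank_of_small (h81 : ¬ 81 ∣ Nat.card G)
    (hP : ¬ ∀ P : Sylow 3 G, IsMulCommutative (P : Subgroup G)) : PRankLE 3 2 G := by
  intro A hA hA3
  have : Fact (Nat.Prime 3) := ⟨Nat.prime_three⟩
  by_contra h
  have hE : IsElementaryAbelian 3 A := ⟨hA, hA3⟩
  obtain ⟨P, hAP⟩ := hE.isPGroup.exists_le_sylow
  obtain ⟨n, hn⟩ := hE.card_eq_pow
  obtain ⟨m, hm⟩ := P.isPGroup'.exists_card_eq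
  have h1 : 2 < n := by
    rw [hn, not_le] at h
    exact (Nat.pow_lt_pow_iff_right (by norm_num)).1 h
  have h2 : m < 4 := by
    by_contra h2
    exact h81 ((pow_dvd_pow 3 (not_lt.1 h2)).trans (hm ▸ card_subgroup_dvd_card P.1))
  have e : A = P := eq_of_le_of_card_ge hAP (by
    rw [hn, hm]; exact Nat.pow_le_pow_right (by norm_num) (by omega))
  subst e
  exact hP fun Q => ⟨⟨fun a b => (Q.equiv P).injective (by rw [map_mul, map_mul, hA.1.1])⟩⟩

end Cfsg.Agent.K3
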